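import Cfsg.Agent.Lib.Schur.U62.S1.Tab

namespace Cfsg.Agent.Lib.Schur.U62.S1.C12

open Cfsg.Agent.Lib.TC.Core Cfsg.Agent.Lib.TC.Enc Cfsg.Agent.Lib.TC.Pres Cfsg.Agent.Lib.TC.Perm Cfsg.Agent.Lib.TC.Main Cfsg.Agent.Lib.TC.Chain

set_option maxRecDepth 100000

open Cfsg.Agent.Lib.Schur.U62.S1.Tab in
theorem ok : cert.chkRange 48000 4000 = true := by decide +kernel

end Cfsg.Agent.Lib.Schur.U62.S1.C12
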